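import Cfsg.Agent.H348.CharZero
import Mathlib

/-!
Descent of fixed-point-free representations, and irreducible fixed-point-free representations.
-/

set_option autoImplicit false
set_option linter.style.haveILetI false

namespace Cfsg.Agent.H348

open Finset

/-- A representation over some extension field in which all norm elements vanish produces an irreducible
fixed-point-free representation over the subfield. -/
theorem exists_irreducible_fpf {G k K : Type*} [Group G] [Finite G] [Field k] [CharZero k] [Field K]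
    (ι : k →+* K) {n : ℕ} (hn : 0 < n) (τ : G →* GL (Fin n) K)
    (hτ : ∀ g : G, g ≠ 1 → ∑ i ∈ range (orderOf g), ((τ g : GL (Fin n) K) : Matrix (Fin n) (Fin n) K) ^ i = 0) :
    ∃ (m : ℕ) (ρ : G →* GL (Fin m) k), 0 < m ∧ Function.Injective ρ ∧
      (∀ W : Submodule k (Fin m → k),
        (∀ g : G, ∀ w ∈ W, ((ρ g : GL (Fin m) k) : Matrix (Fin m) (Fin m) k).mulVec w ∈ W) → W = ⊥ ∨ W = ⊤) ∧
      ∀ g : G, g ≠ 1 → ∀ v : Fin m → k,
        ((ρ g : GL (Fin m) k) : Matrix (Fin m) (Fin m) k).mulVec v = v → v = 0 := by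
  classical
  haveI : Nonempty (Fin n) := ⟨⟨0, hn⟩⟩
  let f : k →+* Matrix (Fin n) (Fin n) K := (Matrix.scalar (Fin n)).comp ι
  let t : G →* Matrix (Fin n) (Fin n) K := (Units.coeHom _).comp τ
  let Φ : MonoidAlgebra k G →+* Matrix (Fin n) (Fin n) K :=
    MonoidAlgebra.liftNCRingHom f t (fun x y => Matrix.scalar_commute (ι x) (fun r => Commute.all _ _) (t y))
  have hΦ : ∀ g : G, Φ (MonoidAlgebra.of k G g) = t g := by
    intro g
    change MonoidAlgebra.liftNC (f : k →+ Matrix (Fin n) (Fin n) K) t (MonoidAlgebra.single g 1) = t g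
    rw [MonoidAlgebra.liftNC_single]
    change f 1 * t g = t g
    rw [map_one, one_mul]
  have hne : RingHom.ker Φ ≠ ⊤ := RingHom.ker_ne_top Φ
  obtain ⟨M, hM, hle⟩ := Ideal.exists_le_maximal (RingHom.ker Φ) hne
  let N : G → MonoidAlgebra k G := fun g => ∑ i ∈ range (orderOf g), MonoidAlgebra.of k G (g ^ i)
  have hN : ∀ g : G, g ≠ 1 → Φ (N g) = 0 := by
    intro g hg
    change Φ (∑ i ∈ range (orderOf g), MonoidAlgebra.of k G (g ^ i)) = 0
    rw [map_sum, ← hτ g hg]
    refine Finset.sum_congr rfl fun i _ => ?_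
    rw [hΦ, map_pow]
    rfl
  haveI hsimple : IsSimpleModule (MonoidAlgebra k G) (MonoidAlgebra k G ⧸ M) := by
    rw [isSimpleModule_iff_isCoatom]
    exact hM.out
  haveI : Module.Finite k (MonoidAlgebra k G) := Module.Finite.of_basis (MonoidAlgebra.basis G k)
  haveI : Nontrivial (MonoidAlgebra k G ⧸ M) := IsSimpleModule.nontrivial (MonoidAlgebra k G) _
  let θ : G →* Module.End k (MonoidAlgebra k G ⧸ M) :=
    ((Algebra.lsmul k k (MonoidAlgebra k G ⧸ M) : MonoidAlgebra k G →ₐ[k] _) : MonoidAlgebra k G →* _).comp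
      (MonoidAlgebra.of k G)
  have hθ : ∀ g v, θ g v = MonoidAlgebra.of k G g • v := fun _ _ => rfl
  -- fixed-point-free
  have hfpf : ∀ g : G, g ≠ 1 → ∀ v, θ g v = v → v = 0 := by
    intro g hg v hv
    have h1 : N g • v = 0 := by
      obtain ⟨b, rfl⟩ := Submodule.Quotient.mk_surjective M v
      rw [← Submodule.Quotient.mk_smul, Submodule.Quotient.mk_eq_zero]
      apply hle
      rw [RingHom.mem_ker, smul_eq_mul, map_mul, hN g hg, zero_mul]
    have h2 : ∀ i : ℕ, MonoidAlgebra.of k G (g ^ i) • v = v := by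
      intro i
      induction i with
      | zero => rw [pow_zero, map_one, one_smul]
      | succ i ih => rw [pow_succ, map_mul, mul_smul, ← hθ g v, hv, ih]
    change (∑ i ∈ range (orderOf g), MonoidAlgebra.of k G (g ^ i)) • v = 0 at h1
    rw [Finset.sum_smul, Finset.sum_congr rfl (fun i _ => h2 i), Finset.sum_const, card_range,
      ← Nat.cast_smul_eq_nsmul k] at h1
    have h3 : ((orderOf g : ℕ) : k) ≠ 0 := by
      rw [Nat.cast_ne_zero]
      exact (orderOf_pos g).ne'
    exact (smul_eq_zero.1 h1).resolve_left h3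
  -- irreducible
  have hirr : ∀ U : Submodule k (MonoidAlgebra k G ⧸ M), (∀ g : G, ∀ u ∈ U, θ g u ∈ U) → U = ⊥ ∨ U = ⊤ := by
    intro U hU
    let U' : Submodule (MonoidAlgebra k G) (MonoidAlgebra k G ⧸ M) :=
      { carrier := U
        add_mem' := fun ha hb => U.add_mem ha hb
        zero_mem' := U.zero_mem
        smul_mem' := by
          intro c x hx
          induction c using MonoidAlgebra.induction_on with
          | of g => exact hU g x hx
          | add a b ha hb => rw [add_smul]; exact U.add_mem ha hb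
          | smul r a ha => rw [smul_assoc]; exact U.smul_mem r ha }
    rcases hsimple.eq_bot_or_eq_top U' with h | h
    · left
      rw [eq_bot_iff]
      intro x hx
      have : x ∈ U' := hx
      rw [h] at this
      exact this
    · right
      rw [eq_top_iff]
      intro x _
      have : x ∈ U' := by rw [h]; trivial
      exact this
  obtain ⟨m, b, ρ, hm, hρ⟩ := exists_matrix_rep θ
  have hfpf' : ∀ g : G, g ≠ 1 → ∀ v : Fin m → k,
        ((ρ g : GL (Fin m) k) : Matrix (Fin m) (Fin m) k).mulVec v = v → v = 0 := by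
    intro g hg v hv
    have h1 := hρ g (b.equivFun.symm v)
    rw [LinearEquiv.apply_symm_apply, hv] at h1
    have h2 : θ g (b.equivFun.symm v) = b.equivFun.symm v := by
      rw [LinearEquiv.eq_symm_apply]; exact h1.symm
    have h4 := hfpf g hg (b.equivFun.symm v) h2
    rwa [LinearEquiv.map_eq_zero_iff] at h4
  refine ⟨m, ρ, hm, ?_, ?_, hfpf'⟩
  · rw [injective_iff_map_eq_one]
    intro g hg
    by_contra hne1
    have h1 := hfpf' g hne1 (Pi.single ⟨0, hm⟩ 1) (by rw [hg, Units.val_one, Matrix.one_mulVec])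
    have h2 := congrFun h1 ⟨0, hm⟩
    rw [Pi.single_eq_same, Pi.zero_apply] at h2
    exact one_ne_zero h2
  · intro W hW
    rcases hirr (W.comap b.equivFun.toLinearMap) (by
      intro g u hu
      rw [Submodule.mem_comap] at hu ⊢
      have := hW g _ hu
      change Matrix.mulVec _ (b.equivFun u) ∈ W at this
      rw [hρ g u] at this
      exact this) with h | h
    · left
      rw [eq_bot_iff]
      intro x hx
      have h1 : b.equivFun.symm x ∈ W.comap b.equivFun.toLinearMap := by
        rw [Submodule.mem_comap]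
        change b.equivFun (b.equivFun.symm x) ∈ W
        rwa [LinearEquiv.apply_symm_apply]
      rw [h, Submodule.mem_bot, LinearEquiv.map_eq_zero_iff] at h1
      exact h1
    · right
      rw [eq_top_iff]
      intro x _
      have h1 : b.equivFun.symm x ∈ W.comap b.equivFun.toLinearMap := by rw [h]; trivial
      rw [Submodule.mem_comap] at h1
      change b.equivFun (b.equivFun.symm x) ∈ W at h1
      rwa [LinearEquiv.apply_symm_apply] at h1

/-- embedding of an algebraic closure -/
theorem nonempty_algClosure_hom (F K : Type*) [Field F] [Field K] [IsAlgClosed K] (i : F →+* K) :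
    Nonempty (AlgebraicClosure F →+* K) := by
  letI := i.toAlgebra
  exact ⟨((IsAlgClosed.lift : AlgebraicClosure F →ₐ[F] K) : AlgebraicClosure F →+* K)⟩

/-- A fixed-point-free group has a faithful irreducible fixed-point-free representation over any
algebraically closed field of characteristic zero that is algebraic over `ℚ`. -/
theorem HasFPF.exists_irreducible {G : Type*} [Group G] [Finite G] (h : HasFPF G) :
    ∃ (m : ℕ) (ρ : G →* GL (Fin m) (AlgebraicClosure ℚ)), 0 < m ∧ Function.Injective ρ ∧
      (∀ W : Submodule (AlgebraicClosure ℚ) (Fin m → AlgebraicClosure ℚ),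
        (∀ g : G, ∀ w ∈ W, ((ρ g : GL (Fin m) (AlgebraicClosure ℚ)) :
          Matrix (Fin m) (Fin m) (AlgebraicClosure ℚ)).mulVec w ∈ W) → W = ⊥ ∨ W = ⊤) ∧
      ∀ g : G, g ≠ 1 → ∀ v : Fin m → AlgebraicClosure ℚ,
        ((ρ g : GL (Fin m) (AlgebraicClosure ℚ)) :
          Matrix (Fin m) (Fin m) (AlgebraicClosure ℚ)).mulVec v = v → v = 0 := by
  obtain ⟨p, hp, n, σ, hc, hn, hσ⟩ := h.exists_gl
  obtain ⟨τ, hτ⟩ := Lift.exists_lift hc σ
  let K := AlgebraicClosure ℚ_[p]
  obtain ⟨ι⟩ := nonempty_algClosure_hom ℚ K (algebraMap ℚ K)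
  let j : ℤ_[p] →+* K := (algebraMap ℚ_[p] K).comp (PadicInt.Coe.ringHom)
  refine exists_irreducible_fpf ι hn ((Matrix.GeneralLinearGroup.map j).comp τ) ?_
  intro g hg
  have h1 := norm_eq_zero hc σ τ hτ g (hσ g hg)
  have h2 := congrArg (fun A => j.mapMatrix A) h1
  simp only [map_sum, map_pow, map_zero] at h2
  exact h2

end Cfsg.Agent.H348
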